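import Mathlib
import Cfsg.Agent.Lib.Helper51.EA38.Defs

/-!
# S1338, package (Q7): `LemClaim2` (helper80)

In the configuration `W₂ < W` (`|W| = 27`, `|W₂| = 9`, `[W, P] ≤ W₂`, `Ω₁(C_P(W)) ≤ W`) with
`Rank4Shape W W₂`, every elementary abelian subgroup of order at least `81` is normal.
-/

set_option autoImplicit false
set_option linter.style.haveILetI false

namespace Cfsg.Agent.Lib.Helper80.EA38

open Cfsg.Agent.Lib.Helper51.EA38

universe u

/-- Product formula when `H` normalizes `N`. -/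
theorem card_sup_mul_card_inf_of_le_normalizer {G : Type*} [Group G] (H N : Subgroup G)
    (hLE : H ≤ Subgroup.normalizer (N : Set G)) :
    Nat.card (H ⊔ N : Subgroup G) * Nat.card (H ⊓ N : Subgroup G) = Nat.card H * Nat.card N := by
  have key : ∀ A B : Subgroup G, A.relIndex B * Nat.card (A ⊓ B : Subgroup G) = Nat.card B := by
    intro A B
    have h1 := Subgroup.card_mul_index (A.subgroupOf B)
    have h2 : Nat.card (A.subgroupOf B) = Nat.card (A ⊓ B : Subgroup G) := by
      rw [← Subgroup.subgroupOf_map_subtype A B,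
        Subgroup.card_map_of_injective B.subtype_injective]
    rw [h2, mul_comm] at h1
    exact h1
  have h1 : N.relIndex H = N.relIndex (H ⊔ N) := by
    letI := Subgroup.normal_subgroupOf_of_le_normalizer hLE
    letI := Subgroup.normal_subgroupOf_sup_of_le_normalizer hLE
    exact Nat.card_congr (QuotientGroup.quotientInfEquivProdNormalizerQuotient H N hLE).toEquiv
  have h2 := key N H
  have h3 := key N (H ⊔ N)
  have h4 : N ⊓ (H ⊔ N) = N := inf_eq_left.mpr le_sup_right
  rw [h4] at h3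
  rw [inf_comm] at h2
  rw [← h3, ← h2, h1]
  ring

/-- `(a b)^3 = a^3 b^3 c^3` when `b a = a b c` with `c` commuting with `a` and `b`. -/
theorem mul_pow_three_of_comm {G : Type*} [Group G] (a b c : G) (hba : b * a = a * b * c)
    (hca : c * a = a * c) (hcb : c * b = b * c) : (a * b) ^ 3 = a ^ 3 * b ^ 3 * c ^ 3 := by
  have h1 : (a * b) ^ 3 = a * (b * a) * (b * a) * b := by
    simp only [pow_succ, pow_zero, one_mul, mul_assoc]
  rw [h1, hba]
  have h2 : a * (a * b * c) * (a * b * c) * b = a * a * b * (c * a) * b * (c * b) := by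
    simp only [mul_assoc]
  rw [h2, hca, hcb]
  have h3 : a * a * b * (a * c) * b * (b * c) = a * a * (b * a) * (c * b) * b * c := by
    simp only [mul_assoc]
  rw [h3, hba, hcb]
  have h4 : a * a * (a * b * c) * (b * c) * b * c = a * a * a * b * (c * b) * (c * b) * c := by
    simp only [mul_assoc]
  rw [h4, hcb]
  have h5 : a * a * a * b * (b * c) * (b * c) * c = a * a * a * b * b * (c * b) * c * c := by
    simp only [mul_assoc]
  rw [h5, hcb]
  simp only [pow_succ, pow_zero, one_mul, mul_assoc]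

theorem ea_comm {G : Type*} [Group G] {p : ℕ} {A : Subgroup G}
    (hA : Cfsg.IsElementaryAbelian p A) {a b : G} (ha : a ∈ A) (hb : b ∈ A) : a * b = b * a := by
  have hab : (⟨a, ha⟩ : A) * ⟨b, hb⟩ = ⟨b, hb⟩ * ⟨a, ha⟩ := (isMulCommutative_iff.mp hA.1) _ _
  exact congrArg Subtype.val hab

theorem lemClaim2 (hS : LemStep.{u}) : LemClaim2.{u} := by
  intro P _ _ hP W W₂ hWn hWea hW27 hOm hW₂ hW₂9 hcomm hShape E hEea hE81
  haveI : Fact (Nat.Prime 3) := ⟨Nat.prime_three⟩
  by_contra hEn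
  obtain ⟨hE81', hEW, hEc⟩ := hShape E hEea hE81
  have hNtop : Subgroup.normalizer (E : Set P) < ⊤ := by
    rw [lt_top_iff_ne_top]
    intro h
    exact hEn (Subgroup.normalizer_eq_top_iff.mp h)
  haveI : Group.IsNilpotent P := hP.isNilpotent
  have hnc := Group.normalizerCondition_of_isNilpotent (G := P) _ hNtop
  obtain ⟨g, hgN, hgnot⟩ := SetLike.exists_of_lt hnc
  -- the conjugate `E' = g E g⁻¹`
  let E' : Subgroup P := E.map (MulAut.conj g).toMonoidHom
  have hE'mem : ∀ x, x ∈ E' ↔ g⁻¹ * x * g ∈ E := by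
    intro x
    constructor
    · rintro ⟨e, he, rfl⟩
      have : g⁻¹ * (MulAut.conj g).toMonoidHom e * g = e := by
        change g⁻¹ * (g * e * g⁻¹) * g = e
        group
      rwa [this]
    · intro h
      refine ⟨g⁻¹ * x * g, h, ?_⟩
      change g * (g⁻¹ * x * g) * g⁻¹ = x
      group
  have hEN : E ≤ Subgroup.normalizer (E : Set P) := Subgroup.le_normalizer
  -- `g⁻¹ e g ∈ N` for `e ∈ E`
  have hF3 : ∀ e ∈ E, g⁻¹ * e * g ∈ Subgroup.normalizer (E : Set P) := fun e he =>
    (Subgroup.mem_normalizer_iff''.mp hgN e).mp (hEN he)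
  have hF2 : ∀ x ∈ E', x ∈ Subgroup.normalizer (E : Set P) := by
    rintro x ⟨e, he, rfl⟩
    exact (Subgroup.mem_normalizer_iff.mp hgN e).mp (hEN he)
  have hF4 : E' ≤ Subgroup.normalizer (E : Set P) := hF2
  have hF5 : E ≤ Subgroup.normalizer (E' : Set P) := by
    intro e he
    rw [Subgroup.mem_normalizer_iff]
    intro y
    rw [hE'mem, hE'mem]
    have h := Subgroup.mem_normalizer_iff.mp (hF3 e he) (g⁻¹ * y * g)
    have h2 : g⁻¹ * e * g * (g⁻¹ * y * g) * (g⁻¹ * e * g)⁻¹ = g⁻¹ * (e * y * e⁻¹) * g := by group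
    rw [h2] at h
    exact h
  have hE'ea : Cfsg.IsElementaryAbelian 3 E' := by
    refine ⟨?_, ?_⟩
    · rw [isMulCommutative_iff]
      rintro ⟨x, hx⟩ ⟨y, hy⟩
      apply Subtype.ext
      change x * y = y * x
      have h1 := ea_comm hEea ((hE'mem x).mp hx) ((hE'mem y).mp hy)
      have h2 : x * y = g * ((g⁻¹ * x * g) * (g⁻¹ * y * g)) * g⁻¹ := by group
      have h3 : y * x = g * ((g⁻¹ * y * g) * (g⁻¹ * x * g)) * g⁻¹ := by group
      rw [h2, h3, h1]
    · intro x hx
      have h1 := hEea.2 _ ((hE'mem x).mp hx)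
      have h2 : (g⁻¹ * x * g) ^ 3 = g⁻¹ * x ^ 3 * g := by
        simp only [pow_succ, pow_zero, one_mul]
        group
      rw [h2] at h1
      have h3 : x ^ 3 = g * (g⁻¹ * x ^ 3 * g) * g⁻¹ := by group
      rw [h3, h1]
      group
  have hE'card : Nat.card E' = 81 := by
    rw [Subgroup.card_map_of_injective (MulAut.conj g).injective, hE81']
  have hE'ne : E' ≠ E := by
    intro h
    apply hgnot
    rw [Subgroup.mem_normalizer_iff'']
    intro x
    rw [← hE'mem, h]
  obtain ⟨-, hE'W, hE'c⟩ := hShape E' hE'ea (by rw [hE'card])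
  -- `M = E E'` and `D = E ∩ E'`
  have hMcent : E ⊔ E' ≤ Subgroup.centralizer (W₂ : Set P) := by
    refine sup_le ?_ ?_
    · intro e he
      rw [Subgroup.mem_centralizer_iff]
      intro w hw
      exact (hEc e he w hw).symm
    · intro e he
      rw [Subgroup.mem_centralizer_iff]
      intro w hw
      exact (hE'c e he w hw).symm
  have hDcent : E ⊔ E' ≤ Subgroup.centralizer ((E ⊓ E' : Subgroup P) : Set P) := by
    refine sup_le ?_ ?_
    · intro e he
      rw [Subgroup.mem_centralizer_iff]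
      intro d hd
      exact ea_comm hEea hd.1 he
    · intro e he
      rw [Subgroup.mem_centralizer_iff]
      intro d hd
      exact ea_comm hE'ea hd.2 he
  have hMexp : ∀ x ∈ E ⊔ E', x ^ 3 = 1 := by
    intro x hx
    rw [← SetLike.mem_coe, Subgroup.coe_mul_of_left_le_normalizer_right E E' hF5] at hx
    obtain ⟨a, ha, b, hb, rfl⟩ := hx
    have ha : a ∈ E := ha
    have hb : b ∈ E' := hb
    -- c = b⁻¹ a⁻¹ b a
    have hc1 : b⁻¹ * a⁻¹ * b * a ∈ E := by
      have h := (Subgroup.mem_normalizer_iff''.mp (hF4 hb) a⁻¹).mp (E.inv_mem ha)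
      exact E.mul_mem h ha
    have hc2 : b⁻¹ * a⁻¹ * b * a ∈ E' := by
      have h := (Subgroup.mem_normalizer_iff''.mp (hF5 ha) b).mp hb
      have h' := E'.mul_mem (E'.inv_mem hb) h
      have e : b⁻¹ * (a⁻¹ * b * a) = b⁻¹ * a⁻¹ * b * a := by group
      rwa [e] at h'
    have h := mul_pow_three_of_comm a b (b⁻¹ * a⁻¹ * b * a) (by group)
      (ea_comm hEea hc1 ha) (ea_comm hE'ea hc2 hb)
    rw [h, hEea.2 a ha, hE'ea.2 b hb, hEea.2 _ hc1]
    group
  -- pick `w₃ ∈ W \ W₂`
  have hW₂lt : W₂ < W := by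
    refine lt_of_le_of_ne hW₂ ?_
    intro h
    rw [h, hW27] at hW₂9
    omega
  obtain ⟨w₃, hw₃W, hw₃⟩ := SetLike.exists_of_lt hW₂lt
  have hstep := hS (E ⊔ E') W₂ w₃ (by
      intro a _
      have h := hcomm w₃ hw₃W a
      have h' := W₂.inv_mem h
      have e : (a * w₃ * a⁻¹ * w₃⁻¹)⁻¹ = w₃ * a * w₃⁻¹ * a⁻¹ := by group
      rwa [e] at h') (by
      intro a ha z hz
      exact (Subgroup.mem_centralizer_iff.mp (hMcent ha) z hz).symm)
  rw [hW₂9] at hstep
  -- `M ∩ C(w₃) ≤ W`
  have hMCW : (E ⊔ E') ⊓ Subgroup.centralizer {w₃} ≤ W := by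
    intro x hx
    obtain ⟨hxM, hxC⟩ := hx
    have hxw₃ : w₃ * x = x * w₃ := Subgroup.mem_centralizer_iff.mp hxC w₃ rfl
    apply hOm x _ (hMexp x hxM)
    -- `x` centralizes `W`
    have hK1 : W₂ ≤ W ⊓ Subgroup.centralizer {x} := by
      intro w hw
      have hc : w ∈ Subgroup.centralizer {x} := by
        rw [Subgroup.mem_centralizer_iff]
        intro y hy
        rw [Set.mem_singleton_iff] at hy
        subst hy
        exact (Subgroup.mem_centralizer_iff.mp (hMcent hxM) w hw).symm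
      exact ⟨hW₂ hw, hc⟩
    have hK2 : w₃ ∈ W ⊓ Subgroup.centralizer {x} := by
      have hc : w₃ ∈ Subgroup.centralizer {x} := by
        rw [Subgroup.mem_centralizer_iff]
        intro y hy
        rw [Set.mem_singleton_iff] at hy
        subst hy
        exact hxw₃.symm
      exact ⟨hw₃W, hc⟩
    have hK3 : W ⊓ Subgroup.centralizer {x} ≤ W := inf_le_left
    have hd1 := Subgroup.card_dvd_of_le hK1
    have hd2 := Subgroup.card_dvd_of_le hK3
    rw [hW₂9] at hd1
    rw [hW27] at hd2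
    have hne9 : Nat.card ↥(W ⊓ Subgroup.centralizer {x}) ≠ 9 := by
      intro h9
      have := Subgroup.eq_of_le_of_card_ge hK1 (by rw [h9, hW₂9])
      exact hw₃ (this ▸ hK2)
    have h27 : Nat.card ↥(W ⊓ Subgroup.centralizer {x}) = 27 := by
      obtain ⟨k, hk⟩ := hd1
      have hk3 : k ∣ 3 := by
        rw [hk] at hd2
        exact (Nat.mul_dvd_mul_iff_left (by norm_num : 0 < 9)).mp (by simpa using hd2)
      rcases (Nat.dvd_prime Nat.prime_three).mp hk3 with h | h
      · exact absurd (by rw [hk, h]) hne9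
      · rw [hk, h]
    have hKW : W ⊓ Subgroup.centralizer {x} = W :=
      Subgroup.eq_of_le_of_card_ge hK3 (by rw [h27, hW27])
    intro w hw
    have hw' : w ∈ W ⊓ Subgroup.centralizer {x} := by rw [hKW]; exact hw
    exact Subgroup.mem_centralizer_iff.mp hw'.2 x rfl
  have hMC27 : Nat.card ↥((E ⊔ E') ⊓ Subgroup.centralizer {w₃}) ≤ 27 := by
    rw [← hW27]
    exact Subgroup.card_le_of_le hMCW
  -- product formula
  have hprod := card_sup_mul_card_inf_of_le_normalizer E E' hF5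
  rw [hE81', hE'card] at hprod
  -- `|D| ≤ 27`
  have hDne : Nat.card ↥(E ⊓ E') ≠ 81 := by
    intro h81
    have h1 : E ⊓ E' = E := Subgroup.eq_of_le_of_card_ge inf_le_left (by rw [h81, hE81'])
    have h2 : E ≤ E' := h1 ▸ inf_le_right
    exact hE'ne (Subgroup.eq_of_le_of_card_ge h2 (by rw [hE'card, hE81'])).symm
  have hDdvd : Nat.card ↥(E ⊓ E') ∣ 81 := by
    have := Subgroup.card_dvd_of_le (inf_le_left : E ⊓ E' ≤ E)
    rwa [hE81'] at this
  have hD27 : Nat.card ↥(E ⊓ E') ≤ 27 := by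
    have h81 : (81 : ℕ) = 3 ^ 4 := by norm_num
    rw [h81] at hDdvd
    obtain ⟨k, hk, hk'⟩ := (Nat.dvd_prime_pow Nat.prime_three).mp hDdvd
    rw [hk'] at hDne ⊢
    interval_cases k <;> simp_all
  -- `|M| = 243`, `|M ∩ C(w₃)| = 27`, `|D| = 27`
  have hM243 : 243 ≤ Nat.card ↥(E ⊔ E') := by
    by_contra hlt
    push Not at hlt
    have : Nat.card ↥(E ⊔ E') * Nat.card ↥(E ⊓ E') < 243 * 27 := by
      calc Nat.card ↥(E ⊔ E') * Nat.card ↥(E ⊓ E') ≤ Nat.card ↥(E ⊔ E') * 27 :=
            Nat.mul_le_mul_left _ hD27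
        _ < 243 * 27 := by omega
    omega
  have hMC27' : 27 ≤ Nat.card ↥((E ⊔ E') ⊓ Subgroup.centralizer {w₃}) := by omega
  have hMCeq : (E ⊔ E') ⊓ Subgroup.centralizer {w₃} = W :=
    Subgroup.eq_of_le_of_card_ge hMCW (by rw [hW27]; exact hMC27')
  have hWM : W ≤ E ⊔ E' := hMCeq ▸ inf_le_left
  have hMle : Nat.card ↥(E ⊔ E') ≤ 243 := by omega
  have hD27' : Nat.card ↥(E ⊓ E') = 27 := by
    have hMeq : Nat.card ↥(E ⊔ E') = 243 := le_antisymm hMle hM243
    rw [hMeq] at hprod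
    omega
  -- `D ≤ W₂`
  have hDW₂ : E ⊓ E' ≤ W₂ := by
    intro d hd
    have hdW : d ∈ W := by
      apply hOm d _ (hEea.2 d hd.1)
      intro w hw
      exact (Subgroup.mem_centralizer_iff.mp (hDcent (hWM hw)) d hd)
    rw [← hEW]
    exact ⟨hd.1, hdW⟩
  have := Subgroup.card_le_of_le hDW₂
  rw [hD27', hW₂9] at this
  omega

end Cfsg.Agent.Lib.Helper80.EA38
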